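import Cfsg.Agent.Lib.Helper19.KAlt.Defs

/-!
# KALT project (S0747), package [FAITH]
-/

set_option autoImplicit false

namespace Cfsg.Agent.Lib.Helper34.KAlt

open Cfsg.Agent.Lib.Helper75.LW Cfsg.Agent.Lib.Helper19.KAlt

universe u

/-- the restriction homomorphism from the setwise stabiliser of `Δ` to `Perm ↥Δ` -/
def restrHom {α : Type u} (G : Subgroup (Equiv.Perm α)) (Δ : Finset α) :
    ↥(SS G Δ) →* Equiv.Perm ↥Δ where
  toFun g := Equiv.Perm.subtypePerm (g : Equiv.Perm α) (fun x => (mem_SS.mp g.2).2 x)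
  map_one' := by
    ext x
    rfl
  map_mul' g h := by
    ext x
    rfl

theorem restrHom_apply {α : Type u} (G : Subgroup (Equiv.Perm α)) (Δ : Finset α)
    (g : ↥(SS G Δ)) (x : ↥Δ) : ((restrHom G Δ g x : ↥Δ) : α) = (g : Equiv.Perm α) (x : α) := rfl

theorem pkgFaith : PkgFaith.{u} := by
  intro α _ _ G j Δ htriv hj
  obtain ⟨s, hsΔ, hscard⟩ := Finset.exists_subset_card_eq hj
  have hinj : Function.Injective (restrHom G Δ) := by
    rw [injective_iff_map_eq_one]
    intro g hg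
    apply Subtype.ext
    show (g : Equiv.Perm α) = 1
    apply htriv s hscard _ (mem_SS.mp g.2).1
    intro a ha
    have h1 := restrHom_apply G Δ g ⟨a, hsΔ ha⟩
    rw [hg] at h1
    exact h1.symm
  refine ⟨(restrHom G Δ).range, ?_, ?_⟩
  · exact (Nat.card_congr (MonoidHom.ofInjective hinj).toEquiv).symm
  · rintro σ ⟨g, rfl⟩
    exact ⟨(g : Equiv.Perm α), (mem_SS.mp g.2).1, fun x => (restrHom_apply G Δ g x).symm⟩

end Cfsg.Agent.Lib.Helper34.KAlt
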